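import Mathlib
import Cfsg.Agent.Lib.Helper14.MinSp.Basic
import Cfsg.Agent.Lib.Helper24.MinSp.G3

/-! Definitions for the minimal index of `Sp_{2m}(2)` (S2142). -/

set_option autoImplicit false

namespace Cfsg.Agent.Lib.Helper14.MinSp2

open Matrix Cfsg.Agent.Lib.Helper13 Cfsg.Agent.Lib.Helper5

variable {F : Type*} [Field F] {m : ℕ}

/-- `Q` is a quadratic form (as a function) polarising to the symplectic form. -/
def IsQuad (Q : (Fin m ⊕ Fin m → F) → F) : Prop :=
  ∀ x y, Q (x + y) = Q x + Q y + Cfsg.sympForm m F x y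

/-- The stabiliser of the function `Q` in the symplectic group. -/
def stabQ (Q : (Fin m ⊕ Fin m → F) → F) : Subgroup (Matrix.symplecticGroup (Fin m) F) where
  carrier := {g | ∀ x, Q (g.1 *ᵥ x) = Q x}
  one_mem' := fun x => by simp
  mul_mem' := fun {a b} ha hb x => by rw [sp_mul_mulVec, ha, hb]
  inv_mem' := fun {a} ha x => by
    have := ha ((a⁻¹).1 *ᵥ x)
    rw [sp_mulVec_inv_mulVec] at this
    exact this.symm

end Cfsg.Agent.Lib.Helper14.MinSp2
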